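import Cfsg.Agent.H831.FF.Elts
import Cfsg.Agent.H831.FF.Trace
import Cfsg.Agent.H831.FF.RowCo3
import Cfsg.Agent.H831.FF.Jay
import Cfsg.Agent.H287.FF.Tools
import Cfsg.Agent.H44.LargeP
import Cfsg.Agent.KFacts.Co1.CaseM
import Cfsg.Agent.KFacts.Co1.YBig
import Cfsg.Agent.H49.CoOnePr

/-!
# S1870: the row Co1 (helper831)

Classes of involutions of `Co1`: octad signs (`C(z) = 2^{1+8}.O8+(2)`), dodecad signs, images of elements `t` with
`t ^ 2 = -1`.
* all of them invert a noncentral element of `5^{1+2}`, so `|M : C_M(x)| ≥ 2 ^ 8`;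
* `A` contains no octad element: `z` inverts `s`, `t` with `[s, t] = c` of order 3 (in `3^{1+4}`), so by the Γ-lemma
  `A ≤ O_2(C(z))`, `|A| ≤ 2 ^ 5`;
* so the lift of `A` to `Co0` has trace 0 outside `{1, -1}`, and its order divides `2 · 24 ^ 2`; `|A| ≤ 2 ^ 6`.
-/

set_option autoImplicit false

namespace Cfsg.Agent.H831.FF.RowCo1

open Subgroup Cfsg Cfsg.Agent.Omega.TwoF Cfsg.Agent.Omega.ML.Gen3 Cfsg.Agent.H282.FF
open Cfsg.Agent.Omega.Lie.Heis Cfsg.Agent.ClassTwoFusion.Quad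
open Cfsg.Agent.Co2Type.Mono (tr8 tr8_conj)
open Cfsg.Agent.SporadicA.Co0Mono (signCo0 signCo0_mul_self signCo0_zero)
open Cfsg.Agent.SporadicA.Co1Simple (allOne allOne_smul)
open Cfsg.Agent.CoOneType.SignFacts (sup wt)
open Cfsg.Agent.CoOneType.ClosingFacts (mk mk_mul mk_inv exists_mk mk_eq_one mk_eq co1_cases)
open Cfsg.Agent.CoOneType.ClosingCo1 (a1 a1' exists_octad exists_dodecad)
open Cfsg.Agent.KFacts.Co1.InCo1 (pr RCo1 large comm_iff)
open Cfsg.Agent.KFacts.Co1.RHat (sign_smul_e8_of_mem sign_smul_e8_of_notMem)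
open Cfsg.Agent.SporadicStructure.Co0Base (e8 e8_coe)

universe u v w

/-! ### traces -/

theorem tr8_sign (c : golayCode) : tr8 (signCo0 c) = 192 - 16 * (wt c : ℤ) := by
  classical
  unfold tr8
  have h : ∀ i : GolayPt, ((signCo0 c • e8 i : leechLattice) : GolayPt → ℤ) i = 8 + (if i ∈ sup c then -16 else 0) := by
    intro i
    by_cases hi : i ∈ sup c
    · rw [sign_smul_e8_of_mem hi, if_pos hi]
      show -(((e8 i : leechLattice) : GolayPt → ℤ) i) = _
      rw [e8_coe, Pi.single_eq_same]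
      norm_num
    · rw [sign_smul_e8_of_notMem hi, if_neg hi, e8_coe, Pi.single_eq_same, add_zero]
  rw [Finset.sum_congr rfl fun i _ => h i, Finset.sum_add_distrib, Finset.sum_const, ← Finset.sum_filter,
    Finset.sum_const, Finset.filter_mem_eq_inter, Finset.univ_inter]
  have h1 : (Finset.univ : Finset GolayPt).card = 24 := by decide
  rw [h1]
  simp only [nsmul_eq_mul]
  unfold wt
  push_cast
  ring

theorem tr8_mul_neg (g : Co0) : tr8 (g * signCo0 allOne) = -tr8 g := by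
  unfold tr8
  rw [← Finset.sum_neg_distrib]
  refine Finset.sum_congr rfl fun i _ => ?_
  rw [mul_smul, allOne_smul, Cfsg.Agent.SporadicA.Co0Mono.smul_neg]
  rfl

theorem tr8_sq_of_mk {g h : Co0} (e : mk g = mk h) : tr8 g ^ 2 = tr8 h ^ 2 := by
  rcases (mk_eq g h).1 e with h1 | h1
  · rw [h1]
  · rw [h1, tr8_mul_neg, neg_sq]

theorem tr8_sq_of_isConj {g h : Co0} (e : IsConj (mk g) (mk h)) : tr8 g ^ 2 = tr8 h ^ 2 := by
  obtain ⟨k, hk⟩ := isConj_iff.1 e
  obtain ⟨k, rfl⟩ := exists_mk k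
  have h1 : mk (k * g * k⁻¹) = mk h := hk
  rw [← tr8_sq_of_mk h1, tr8_conj]

theorem central (g : Co0) : g * signCo0 allOne = signCo0 allOne * g := by
  have h1 : signCo0 allOne ∈ center Co0 := (Cfsg.Agent.CoOneType.ClosingFacts.mem_center_iff _).2 (Or.inr rfl)
  exact mem_center_iff.1 h1 g

theorem neg_sq_one : signCo0 allOne * signCo0 allOne = 1 := signCo0_mul_self _

theorem tr8_of_sq_neg {t : Co0} (ht : t * t = signCo0 allOne) : tr8 t = 0 := by
  obtain ⟨g, hg⟩ := a1' t ht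
  obtain ⟨h, hh⟩ := a1' (t * signCo0 allOne) (by
    rw [mul_assoc, ← mul_assoc (signCo0 allOne), ← central, mul_assoc, neg_sq_one, mul_one, ht])
  have h1 : tr8 t = tr8 (t * signCo0 allOne) := by
    rw [← tr8_conj g t, hg, ← hh, tr8_conj]
  rw [tr8_mul_neg] at h1
  omega

/-! ### the elements -/

theorem mk_ne_one_of_pow {g : Co0} (h1 : g ≠ 1) {n : ℕ} (hn : Odd n) (h : g ^ n = 1) : mk g ≠ 1 := by
  intro h2
  rcases (mk_eq_one g).1 h2 with h3 | h3
  · exact h1 h3
  · apply h1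
    obtain ⟨k, rfl⟩ := hn
    rw [h3, pow_succ, pow_mul, pow_two, neg_sq_one, one_pow, one_mul] at h
    rw [h3, h]

theorem heis5 : Heis 5 1 (pr (Five.el 2)) (fun _ => pr (Five.el 0)) (fun _ => pr (Five.el 1)) :=
  Heis.map pr Five.heis

theorem ne5 : pr (Five.el 2) ≠ 1 := mk_ne_one_of_pow Five.ne_2 (n := 5) (by decide) Five.heis.zr

theorem dimGe_of {t : Co0} (ht : mk t * mk t = 1) (hi : t * Five.el 0 * t⁻¹ = (Five.el 0)⁻¹) :
    DimGe.{v} (mk t) 8 := by
  refine Cfsg.Agent.H287.FF.DimGe.of_heis ht heis5 (by norm_num) ne5 0 ?_ ?_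
  · show pr t * pr (Five.el 0) * (pr t)⁻¹ = (pr (Five.el 0))⁻¹
    rw [← map_mul, ← map_inv, ← map_mul, hi, map_inv]
  · rw [ord_two_five]
    norm_num

theorem mk_sq {t : Co0} (ht : t * t = 1) : mk t * mk t = 1 := by
  rw [← mk_mul, ht]
  rfl

theorem mk_neg {t : Co0} (ht : t * t = signCo0 allOne) : mk t * mk t = 1 := by
  rw [← mk_mul, ht]
  exact (mk_eq_one _).2 (Or.inr rfl)

theorem dimGe_a : DimGe.{v} (mk (Five.el 3)) 8 := dimGe_of (mk_sq Five.sq3) Five.inv3
theorem dimGe_c : DimGe.{v} (mk (Five.el 4)) 8 := dimGe_of (mk_sq Five.sq4) Five.inv4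
theorem dimGe_j : DimGe.{v} (mk Jay.j) 8 := dimGe_of (mk_neg Jay.sq) Jay.inv

variable {o d : golayCode}

/-- an involution of `Co0` of trace `± 8` is conjugate to an octad sign -/
theorem conj_octad (ho : wt o = 8) {t : Co0} (ht : t * t = 1) (h : tr8 t ^ 2 = 4096) :
    IsConj (mk (signCo0 o)) (mk t) := by
  obtain ⟨d, hd⟩ := exists_dodecad
  have h1 : mk t ≠ 1 := by
    intro h1
    have h2 : tr8 t ^ 2 = tr8 1 ^ 2 := tr8_sq_of_mk h1
    rw [h, tr8_one] at h2
    norm_num at h2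
  rcases co1_cases o d a1 a1' ho hd (mk t) (mk_sq ht) h1 with h2 | h2 | ⟨s, hs, g, hg⟩
  · exact h2
  · exfalso
    have h3 := tr8_sq_of_isConj h2
    rw [h, tr8_sign, hd] at h3
    norm_num at h3
  · exfalso
    have h3 : tr8 s = 0 := by
      rw [← tr8_conj g s, hg]
      exact tr8_of_sq_neg Cfsg.Agent.CoOneType.Thirteen.b0_sq
    have h4 := tr8_sq_of_mk hs
    rw [h3, h] at h4
    norm_num at h4

/-- **The classes of involutions** -/
theorem cls (ho : wt o = 8) {k : Spor.Co1} (hk : k * k = 1) (hk1 : k ≠ 1) : DimGe.{v} k 8 ∧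
    (IsConj (mk (signCo0 o)) k ∨ ∀ g : Co0, mk g = k → tr8 g = 0) := by
  obtain ⟨d, hd⟩ := exists_dodecad
  rcases co1_cases o d a1 a1' ho hd k hk hk1 with h2 | h2 | ⟨s, hs, g, hg⟩
  · refine ⟨?_, Or.inl h2⟩
    have h3 : IsConj (mk (signCo0 o)) (mk (Five.el 3)) := conj_octad ho Five.sq3 (by rw [Five.tr8_3]; norm_num)
    exact DimGe.of_isConj dimGe_a (h3.symm.trans h2)
  · refine ⟨?_, Or.inr ?_⟩
    · have h3 : IsConj (mk (signCo0 d)) (mk (Five.el 4)) := by
        have h1 : mk (Five.el 4) ≠ 1 := by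
          intro h1
          have h4 : tr8 (Five.el 4) ^ 2 = tr8 1 ^ 2 := tr8_sq_of_mk h1
          rw [Five.tr8_4, tr8_one] at h4
          norm_num at h4
        rcases co1_cases o d a1 a1' ho hd (mk (Five.el 4)) (mk_sq Five.sq4) h1 with h4 | h4 | ⟨s, hs, g, hg⟩
        · exfalso
          have h5 := tr8_sq_of_isConj h4
          rw [Five.tr8_4, tr8_sign, ho] at h5
          norm_num at h5
        · exact h4
        · exfalso
          have h5 : s * s = 1 := by
            rcases (mk_eq s _).1 hs with h6 | h6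
            · rw [h6, Five.sq4]
            · rw [h6, mul_assoc, ← mul_assoc (signCo0 allOne), ← central, mul_assoc, neg_sq_one, mul_one, Five.sq4]
          have h6 : (g * s * g⁻¹) * (g * s * g⁻¹) = 1 := by
            calc (g * s * g⁻¹) * (g * s * g⁻¹) = g * (s * s) * g⁻¹ := by group
              _ = 1 := by rw [h5]; group
          rw [hg, Cfsg.Agent.CoOneType.Thirteen.b0_sq] at h6
          exact Cfsg.Agent.KFacts.Co1.InCo1.allOne_ne_one h6
      exact DimGe.of_isConj dimGe_c (h3.symm.trans h2)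
    · intro g hg
      rw [← hg] at h2
      have h5 := tr8_sq_of_isConj h2
      rw [tr8_sign, hd] at h5
      have h6 : tr8 g ^ 2 = 0 := by rw [← h5]; norm_num
      exact pow_eq_zero_iff (two_ne_zero) |>.1 h6
  · refine ⟨?_, Or.inr ?_⟩
    · obtain ⟨g', hg'⟩ := a1' Jay.j Jay.sq
      have h3 : g * s * g⁻¹ = g' * Jay.j * g'⁻¹ := by rw [hg, hg']
      have h4 : IsConj (mk Jay.j) k := by
        refine isConj_iff.2 ⟨mk (g⁻¹ * g'), ?_⟩
        rw [← hs, ← mk_inv, ← mk_mul, ← mk_mul]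
        congr 1
        calc g⁻¹ * g' * Jay.j * (g⁻¹ * g')⁻¹ = g⁻¹ * (g' * Jay.j * g'⁻¹) * g := by group
          _ = s := by rw [← h3]; group
      exact DimGe.of_isConj dimGe_j h4
    · intro t ht
      have h5 := tr8_sq_of_mk (ht.trans hs.symm)
      have h6 : tr8 s = 0 := by
        rw [← tr8_conj g s, hg]
        exact tr8_of_sq_neg Cfsg.Agent.CoOneType.Thirteen.b0_sq
      rw [h6] at h5
      have h7 : tr8 t ^ 2 = 0 := by rw [h5]; norm_num
      exact pow_eq_zero_iff (two_ne_zero) |>.1 h7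

/-! ### the Γ-lemma -/

/-- `c` is in the group generated by the `C(c)`-conjugates of `z` -/
theorem mem_closure_of {G : Type*} [Group G] {z c s t : G} (hz : z * z = 1) (hs : s ^ 3 = 1) (ht : t ^ 3 = 1)
    (hsc : s * c = c * s) (htc : t * c = c * t) (hzs : z * s * z⁻¹ = s⁻¹) (hzt : z * t * z⁻¹ = t⁻¹)
    (hconj : t * s * t⁻¹ = s * c) : c ∈ closure {y : G | ∃ g : G, g * c = c * g ∧ y = g * z * g⁻¹} := by
  set X := closure {y : G | ∃ g : G, g * c = c * g ∧ y = g * z * g⁻¹} with hX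
  have hzX : z ∈ X := subset_closure ⟨1, by rw [one_mul, mul_one], by rw [one_mul, inv_one, mul_one]⟩
  have key : ∀ s : G, s ^ 3 = 1 → s * c = c * s → z * s * z⁻¹ = s⁻¹ → s ∈ X := by
    intro s hs hc hi
    have h2 : s * z * s⁻¹ ∈ X := subset_closure ⟨s, hc, rfl⟩
    have h3 : z * (s * z * s⁻¹) ∈ X := mul_mem hzX h2
    have h5 : z * (s * z * s⁻¹) = s := by
      have h6 : z * s = s⁻¹ * z := mul_inv_eq_iff_eq_mul.1 hi
      calc z * (s * z * s⁻¹) = (z * s) * z * s⁻¹ := by group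
        _ = s⁻¹ * (z * z) * s⁻¹ := by rw [h6]; group
        _ = s⁻¹ * s⁻¹ := by rw [hz, mul_one]
        _ = s := by
          have h7 : s * s * s = 1 := by rw [← hs, pow_succ, pow_two]
          have h8 : s⁻¹ = s * s := inv_eq_of_mul_eq_one_left h7
          rw [h8]
          calc s * s * (s * s) = (s * s * s) * s := by group
            _ = s := by rw [h7, one_mul]
    rwa [h5] at h3
  have e0 : s ∈ X := key _ hs hsc hzs
  have e1 : t ∈ X := key _ ht htc hzt
  have h6 : s⁻¹ * (t * s * t⁻¹) ∈ X := mul_mem (inv_mem e0) (mul_mem (mul_mem e1 e0) (inv_mem e1))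
  rwa [hconj, inv_mul_cancel_left] at h6

theorem mem_closure : mk (Three.el 4) ∈
    closure {y : Spor.Co1 | ∃ g : Spor.Co1, g * mk (Three.el 4) = mk (Three.el 4) * g ∧ y = g * mk (Three.el 5) * g⁻¹} := by
  have h := Three.heis
  refine mem_closure_of (s := pr (Three.el 0)) (t := pr (Three.el 1)) (mk_sq Three.sq5) ?_ ?_ ?_ ?_ ?_ ?_ ?_
  · rw [← map_pow]
    exact (congrArg pr (h.xr 0)).trans (map_one pr)
  · rw [← map_pow, Three.r_t3, map_one]
  · show pr (Three.el 0) * pr (Three.el 4) = pr (Three.el 4) * pr (Three.el 0)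
    rw [← map_mul, ← map_mul]
    exact congrArg pr (h.zx 0).symm
  · show pr (Three.el 1) * pr (Three.el 4) = pr (Three.el 4) * pr (Three.el 1)
    rw [← map_mul, ← map_mul]
    exact congrArg pr (h.zy 0).symm
  · show pr (Three.el 5) * pr (Three.el 0) * (pr (Three.el 5))⁻¹ = (pr (Three.el 0))⁻¹
    rw [← map_mul, ← map_inv, ← map_mul, Three.inv0, map_inv]
  · show pr (Three.el 5) * pr (Three.el 1) * (pr (Three.el 5))⁻¹ = (pr (Three.el 1))⁻¹
    rw [← map_mul, ← map_inv, ← map_mul, Three.inv1, map_inv]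
  · show pr (Three.el 1) * pr (Three.el 0) * (pr (Three.el 1))⁻¹ = pr (Three.el 0) * pr (Three.el 4)
    rw [← map_mul, ← map_inv, ← map_mul, ← map_mul]
    exact congrArg pr (h.conj 0)

theorem mem_of_sup {C : Type u} [Group C] {N : Subgroup C} (hN : N.Normal) (R : Subgroup C) (hR2 : IsPGroup 2 R)
    (htop : N ⊔ R = ⊤) {x : C} (h3 : x ^ 3 = 1) : x ∈ N := by
  have hq : ∃ n : ℕ, x ^ 2 ^ n ∈ N := by
    have h1 : x ∈ N ⊔ R := by rw [htop]; exact mem_top _
    obtain ⟨γ, hγ, r, hr, h2⟩ := Subgroup.mem_sup_of_normal_left.1 h1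
    obtain ⟨n, hn⟩ := hR2 ⟨r, hr⟩
    refine ⟨n, ?_⟩
    have h5 : r ^ 2 ^ n = 1 := congrArg Subtype.val hn
    have h6 : ((x ^ 2 ^ n : C) : C ⧸ N) = 1 := by
      have h7 : ((γ : C) : C ⧸ N) = 1 := (QuotientGroup.eq_one_iff _).2 hγ
      rw [← h2, QuotientGroup.mk_pow, QuotientGroup.mk_mul, h7, one_mul, ← QuotientGroup.mk_pow, h5,
        QuotientGroup.mk_one]
    exact (QuotientGroup.eq_one_iff _).1 h6
  obtain ⟨n, hn⟩ := hq
  have h1 : (2 ^ n) % 3 = 1 ∨ (2 ^ n) % 3 = 2 := by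
    clear hn
    induction n with
    | zero => left; rfl
    | succ n ih => rw [pow_succ]; omega
  have key : ∀ m : ℕ, x ^ m = x ^ (m % 3) := by
    intro m
    conv_lhs => rw [← Nat.div_add_mod m 3]
    rw [pow_add, pow_mul, h3, one_pow, one_mul]
  rw [key] at hn
  rcases h1 with h1 | h1
  · rw [h1, pow_one] at hn
    exact hn
  · rw [h1] at hn
    have h4 : x = (x ^ 2)⁻¹ := by
      rw [eq_inv_iff_mul_eq_one, ← pow_succ', h3]
    rw [h4]
    exact inv_mem hn

/-- general form of `mem_of_not_le` -/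
theorem mem_of_not_le_gen {G : Type u} [Group G] [Finite G] {C R Γ : Subgroup G} (hΓC : Γ ≤ C) (hRC : R ≤ C)
    (hnΓ : ∀ g ∈ C, ∀ c ∈ Γ, g * c * g⁻¹ ∈ Γ) (hnR : ∀ g ∈ C, ∀ c ∈ R, g * c * g⁻¹ ∈ R)
    (hmax : ∀ M : Subgroup G, M ≤ C → R ≤ M → (∀ p ∈ C, ∀ n ∈ M, p * n * p⁻¹ ∈ M) → M = R ∨ M = C)
    (hR2 : IsPGroup 2 R) (hR : ¬ Γ ≤ R) {x : G} (hx : x ∈ C) (h3 : x ^ 3 = 1) : x ∈ Γ := by
  have hN : (Γ.subgroupOf C).Normal := ⟨fun c hc g => hnΓ g g.2 c hc⟩
  have hNR : (R.subgroupOf C).Normal := ⟨fun c hc g => hnR g g.2 c hc⟩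
  -- `C = Γ R`
  have htop : Γ.subgroupOf C ⊔ R.subgroupOf C = ⊤ := by
    have h1 := hmax ((Γ.subgroupOf C ⊔ R.subgroupOf C).map C.subtype)
      (by rintro _ ⟨y, -, rfl⟩; exact y.2)
      (fun r hr => ⟨⟨r, hRC hr⟩, (le_sup_right : R.subgroupOf C ≤ Γ.subgroupOf C ⊔ R.subgroupOf C) hr, rfl⟩)
      (by
        rintro p hp _ ⟨y, hy, rfl⟩
        exact ⟨⟨p, hp⟩ * y * ⟨p, hp⟩⁻¹, (Subgroup.sup_normal _ _).conj_mem y hy ⟨p, hp⟩, rfl⟩)
    rcases h1 with h1 | h1
    · exfalso
      apply hR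
      intro c hc
      rw [← h1]
      exact ⟨⟨c, hΓC hc⟩, (le_sup_left : Γ.subgroupOf C ≤ _) hc, rfl⟩
    · rw [eq_top_iff]
      rintro y -
      have h2 : (y : G) ∈ (Γ.subgroupOf C ⊔ R.subgroupOf C).map C.subtype := by
        rw [h1]
        exact y.2
      obtain ⟨y', hy', h4⟩ := h2
      rwa [← Subtype.ext h4]
  exact mem_of_sup hN (R.subgroupOf C) (hR2.comap_subtype) htop (Subtype.ext h3 : (⟨x, hx⟩ : C) ^ 3 = 1)

/-- A subgroup of `C` normalised by `C` which is not contained in `R` contains all elements of odd order of `C`. -/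
theorem mem_of_not_le (ho : wt o = 8) {Γ : Subgroup Spor.Co1}
    (hΓ : ∀ c ∈ Γ, c * mk (signCo0 o) = mk (signCo0 o) * c)
    (hn : ∀ g : Spor.Co1, g * mk (signCo0 o) = mk (signCo0 o) * g → ∀ c ∈ Γ, g * c * g⁻¹ ∈ Γ)
    (hR : ¬ Γ ≤ RCo1 o) {x : Spor.Co1} (hx : x * mk (signCo0 o) = mk (signCo0 o) * x) (h3 : x ^ 3 = 1) : x ∈ Γ := by
  have hL := large ho
  have hp : Fact (Nat.Prime 2) := ⟨Nat.prime_two⟩
  have hR2 : IsPGroup 2 (RCo1 o) := IsPGroup.of_card (n := 9) (by
    rw [Cfsg.Agent.KFacts.Co1.YBig.card_R ho]; norm_num)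
  have hfin : Finite Spor.Co1 := Cfsg.Agent.H49.CoOnePr.finite_co1
  exact mem_of_not_le_gen (C := centralizer ({mk (signCo0 o)} : Set Spor.Co1))
    (fun c hc => mem_centralizer_singleton_iff.2 (hΓ c hc))
    (fun r hr => mem_centralizer_singleton_iff.2 (hL.comm_z r hr))
    (fun g hg => hn g (mem_centralizer_singleton_iff.1 hg))
    (fun g hg => hL.conj_mem g (mem_centralizer_singleton_iff.1 hg))
    (Cfsg.Agent.KFacts.Co1.CaseM.normal ho) hR2 hR (mem_centralizer_singleton_iff.2 hx) h3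

/-- a conjugate of `c` for the standard involution -/
theorem exists_x (ho : wt o = 8) : ∃ x : Spor.Co1, x ≠ 1 ∧ x ^ 3 = 1 ∧ x * mk (signCo0 o) = mk (signCo0 o) * x ∧
    x ∈ closure {y : Spor.Co1 | ∃ g : Spor.Co1, g * x = x * g ∧ y = g * mk (signCo0 o) * g⁻¹} := by
  have hc : IsConj (mk (signCo0 o)) (mk (Three.el 5)) := conj_octad ho Three.sq5 (by rw [Three.tr8_5]; norm_num)
  obtain ⟨g, hg'⟩ := isConj_iff.1 hc.symm
  have h30 : mk (Three.el 4) ^ 3 = 1 := by
    have h := Three.heis.zr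
    show pr (Three.el 4) ^ 3 = 1
    rw [← map_pow, h, map_one]
  have hne : mk (Three.el 4) ≠ 1 := mk_ne_one_of_pow Three.ne_4 (n := 3) (by decide) Three.heis.zr
  have hcomm : mk (Three.el 4) * mk (Three.el 5) = mk (Three.el 5) * mk (Three.el 4) := by
    rw [← mk_mul, ← mk_mul, Three.comm5]
  refine ⟨g * mk (Three.el 4) * g⁻¹, ?_, ?_, ?_, ?_⟩
  · intro h
    apply hne
    have h1 : mk (Three.el 4) = g⁻¹ * (g * mk (Three.el 4) * g⁻¹) * g := by group
    rw [h1, h]
    group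
  · rw [conj_pow, h30]
    group
  · rw [← hg']
    have h1 : g * mk (Three.el 4) * g⁻¹ * (g * mk (Three.el 5) * g⁻¹) = g * (mk (Three.el 4) * mk (Three.el 5)) * g⁻¹ := by
      group
    have h2 : g * mk (Three.el 5) * g⁻¹ * (g * mk (Three.el 4) * g⁻¹) = g * (mk (Three.el 5) * mk (Three.el 4)) * g⁻¹ := by
      group
    rw [h1, h2, hcomm]
  · have h1 : g * mk (Three.el 4) * g⁻¹ ∈ (closure {y : Spor.Co1 | ∃ g : Spor.Co1,
        g * mk (Three.el 4) = mk (Three.el 4) * g ∧ y = g * mk (Three.el 5) * g⁻¹}).map (MulAut.conj g).toMonoidHom :=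
      ⟨_, mem_closure, rfl⟩
    rw [MonoidHom.map_closure] at h1
    refine closure_mono ?_ h1
    rintro _ ⟨_, ⟨k, hk, rfl⟩, rfl⟩
    refine ⟨g * k * g⁻¹, ?_, ?_⟩
    · have h2 : g * k * g⁻¹ * (g * mk (Three.el 4) * g⁻¹) = g * (k * mk (Three.el 4)) * g⁻¹ := by group
      have h3 : g * mk (Three.el 4) * g⁻¹ * (g * k * g⁻¹) = g * (mk (Three.el 4) * k) * g⁻¹ := by group
      rw [h2, h3, hk]
    · rw [← hg']
      show g * (k * mk (Three.el 5) * k⁻¹) * g⁻¹ = _
      group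

section module

variable {H : Type u} [Group H] [Finite H] {M : Type v} [Group M] [Finite M] [MulDistribMulAction H M]
  {K A : Subgroup H}

/-- there is no octad element in `A` -/
theorem no_z (h : InF H M K A) (ho : wt o = 8) (f : K ≃* Spor.Co1) {z : K} (hz : (z : H) ∈ A)
    (hfz : f z = mk (signCo0 o)) (hout : OutLe K 0) : False := by
  have hfin : Finite Spor.Co1 := inferInstance
  -- `|A| ≥ 2 ^ 8`
  have h6 : DimGe.{v} z 8 := by
    have h1 : DimGe.{v} (mk (signCo0 o)) 8 :=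
      (cls ho (mk_sq (signCo0_mul_self o)) (Cfsg.Agent.KFacts.Co1.InCo1.z_ne_one ho)).1
    have h2 := h1.map f.symm.toMonoidHom f.symm.injective
    have h3 : f.symm.toMonoidHom (mk (signCo0 o)) = z := by
      rw [← hfz]
      exact f.symm_apply_apply z
    rwa [h3] at h2
  have hA : 2 ^ 8 ≤ Nat.card A := (h.dim_le h6).trans (h.index_mem hz)
  -- the subgroups of the model
  set B : Subgroup Spor.Co1 := (A.subgroupOf K).map f.toMonoidHom with hB
  have hBc : Nat.card A ≤ Nat.card B := by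
    have h1 := h.card_inf hout
    rw [pow_zero, one_mul] at h1
    rw [hB, card_map_of_injective f.injective]
    exact h1
  set Γ : Subgroup Spor.Co1 := ((Gam M (z : H)).subgroupOf K).map f.toMonoidHom with hΓ
  have hBΓ : B ≤ Γ := map_mono fun b hb => h.le_Gam hz hb
  have hcen : ∀ c ∈ Γ, c * mk (signCo0 o) = mk (signCo0 o) * c := by
    rintro _ ⟨c, hc, rfl⟩
    have h1 : c * z = z * c := Subtype.ext hc.1
    rw [← hfz]
    show f c * f z = f z * f c
    rw [← map_mul, h1, map_mul]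
  have hn : ∀ g : Spor.Co1, g * mk (signCo0 o) = mk (signCo0 o) * g → ∀ c ∈ Γ, g * c * g⁻¹ ∈ Γ := by
    rintro g hg _ ⟨c, hc, rfl⟩
    obtain ⟨k, rfl⟩ := f.surjective g
    refine ⟨k * c * k⁻¹, ?_, ?_⟩
    · have h1 : k * z = z * k := f.injective (by rw [map_mul, map_mul, hfz]; exact hg)
      exact Gam_conj (congrArg Subtype.val h1) hc
    · show f (k * c * k⁻¹) = f k * f c * (f k)⁻¹
      rw [map_mul, map_mul, map_inv]
  obtain ⟨x, hx1, hx3, hxz, hcl⟩ := exists_x ho
  have hxΓ : x ∉ Γ := by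
    rintro ⟨y, hy, rfl⟩
    apply hx1
    have h1 : (y : H) = 1 := by
      refine gamma h.sq h.faith (a := (z : H)) (n := 3) (by decide) ?_ hy ?_
      · have h2 : y ^ 3 = 1 := f.injective (by
          rw [map_pow, map_one]
          exact hx3)
        exact congrArg Subtype.val h2
      · have h2 : y ∈ (closure {w : Spor.Co1 | ∃ g : Spor.Co1, g * f y = f y * g ∧
            w = g * mk (signCo0 o) * g⁻¹}).map f.symm.toMonoidHom := ⟨f y, hcl, f.symm_apply_apply y⟩
        have h3 := mem_map_of_mem K.subtype h2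
        rw [MonoidHom.map_closure, MonoidHom.map_closure] at h3
        refine closure_mono ?_ h3
        rintro _ ⟨_, ⟨_, ⟨g, hg, rfl⟩, rfl⟩, rfl⟩
        obtain ⟨k, rfl⟩ := f.surjective g
        refine ⟨k, ?_, ?_⟩
        · have h4 : k * y = y * k := f.injective (by rw [map_mul, map_mul]; exact hg)
          exact congrArg Subtype.val h4
        · have h4 : f.symm (f k * mk (signCo0 o) * (f k)⁻¹) = k * z * k⁻¹ := by
            apply f.injective
            rw [f.apply_symm_apply, map_mul, map_mul, map_inv, hfz]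
          exact congrArg Subtype.val h4
    have h2 : y = 1 := Subtype.ext h1
    show f y = 1
    rw [h2, map_one]
  have hR : Γ ≤ RCo1 o := by
    by_contra hcon
    exact hxΓ (mem_of_not_le ho hcen hn hcon hxz hx3)
  have hzB : mk (signCo0 o) ∈ B := ⟨z, hz, hfz⟩
  have hsq := Cfsg.Agent.H44.LargeP.card_sq_le (large ho) (hBΓ.trans hR) hzB (by
    rintro _ ⟨a, ha, rfl⟩ _ ⟨b, hb, rfl⟩
    have h1 : a * b = b * a := Subtype.ext (h.A_comm _ ha _ hb)
    show f a * f b = f b * f a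
    rw [← map_mul, h1, map_mul])
  rw [Cfsg.Agent.KFacts.Co1.YBig.card_R ho] at hsq
  have h7 : 2 ^ 8 ≤ Nat.card B := hA.trans hBc
  have h8 : (2 ^ 8) ^ 2 ≤ Nat.card B ^ 2 := Nat.pow_le_pow_left h7 2
  norm_num at hsq h8
  omega

end module

/-- the order of a subgroup of `Co1` whose lift has trace 0 outside the centre -/
theorem card_dvd (B : Subgroup Spor.Co1) (h : ∀ g : Co0, mk g ∈ B → mk g ≠ 1 → tr8 g = 0) :
    Nat.card B ∣ 576 := by
  classical
  have hfin0 : Finite Co0 := Cfsg.Agent.H49.CoOnePr.finite_co0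
  have hfin1 : Finite Spor.Co1 := Cfsg.Agent.H49.CoOnePr.finite_co1
  set B' : Subgroup Co0 := B.comap pr with hB'
  have := Fintype.ofFinite B'
  have hcard : Nat.card B' = 2 * Nat.card B := by
    have h1 : B'.index = B.index := B.index_comap_of_surjective (QuotientGroup.mk'_surjective (center Co0))
    have h2 := B'.card_mul_index
    have h3 := B.card_mul_index
    rw [Cfsg.Agent.S0397.result, h1] at h2
    rw [Cfsg.Agent.H49.CoOnePr.card_co1] at h3
    have h4 : 0 < B.index := Nat.pos_of_ne_zero B.index_ne_zero_of_finite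
    apply Nat.eq_of_mul_eq_mul_right h4
    rw [h2, mul_assoc, h3]
    norm_num
  obtain ⟨f, hf⟩ := exists_sum_sq B'.subtype
  have hone : (1 : Co0) ≠ signCo0 allOne := fun h1 => Cfsg.Agent.KFacts.Co1.InCo1.allOne_ne_one h1.symm
  have hval : ∀ a : B', tr8 (B'.subtype a) ^ 2 =
      (if a = 1 then 36864 else 0) + (if (a : Co0) = signCo0 allOne then 36864 else 0) := by
    intro a
    by_cases ha : a = 1
    · subst ha
      rw [if_pos rfl, map_one, tr8_one, if_neg (by rw [coe_one]; exact hone)]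
      norm_num
    · have ha' : (a : Co0) ≠ 1 := fun h1 => ha (Subtype.ext h1)
      rw [if_neg ha]
      by_cases hb : (a : Co0) = signCo0 allOne
      · rw [if_pos hb]
        show tr8 (a : Co0) ^ 2 = _
        have h1 : tr8 (signCo0 allOne) = - tr8 1 := by rw [← tr8_mul_neg, one_mul]
        rw [hb, h1, tr8_one]
        norm_num
      · rw [if_neg hb]
        show tr8 (a : Co0) ^ 2 = _
        rw [h a a.2 (fun h1 => by
          rcases (Cfsg.Agent.CoOneType.ClosingFacts.mk_eq_one _).1 h1 with h2 | h2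
          · exact ha' h2
          · exact hb h2)]
        norm_num
  have hneg : signCo0 allOne ∈ B' := by
    show pr (signCo0 allOne) ∈ B
    have h1 : pr (signCo0 allOne) = 1 := (Cfsg.Agent.CoOneType.ClosingFacts.mk_eq_one _).2 (Or.inr rfl)
    rw [h1]
    exact B.one_mem
  have hsum : ∑ a : B', tr8 (B'.subtype a) ^ 2 = 73728 := by
    rw [Finset.sum_congr rfl fun a _ => hval a, Finset.sum_add_distrib, Finset.sum_ite_eq' Finset.univ (1 : B'),
      if_pos (Finset.mem_univ _)]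
    have h1 : ∀ a : B', ((a : Co0) = signCo0 allOne) ↔ a = ⟨signCo0 allOne, hneg⟩ := fun a =>
      ⟨fun h => Subtype.ext h, fun h => congrArg Subtype.val h⟩
    simp only [h1]
    rw [Finset.sum_ite_eq' Finset.univ, if_pos (Finset.mem_univ _)]
    norm_num
  rw [hsum, hcard] at hf
  refine ⟨f, ?_⟩
  have h2 : (73728 : ℤ) = 128 * ((Nat.card B : ℤ) * f) := by
    rw [hf]
    push_cast
    ring
  have h3 : ((Nat.card B * f : ℕ) : ℤ) = 576 := by
    push_cast
    linarith
  exact_mod_cast h3.symm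

/-- **The row Co1** of S1870. -/
theorem dead : DeadF.{u, v} @Spor.IsoCo1 := by
  rintro H _ _ M _ _ _ K A h ⟨f⟩
  have hfin : Finite Spor.Co1 := Cfsg.Agent.H49.CoOnePr.finite_co1
  obtain ⟨o, ho⟩ := exists_octad
  have hout : OutLe K 0 := outLe_zero_of_inner (fun α => by
    obtain ⟨k, hk⟩ := Cfsg.Agent.ConwayFacts.AutCo1.inner (f.symm.trans (α.trans f))
    refine ⟨f.symm k, MulEquiv.ext fun x => ?_⟩
    apply f.injective
    have h1 := hk (f x)
    show f (α x) = f (f.symm k * x * (f.symm k)⁻¹)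
    rw [map_mul, map_mul, map_inv, f.apply_symm_apply, ← h1]
    show f (α x) = f (α (f.symm (f x)))
    rw [f.symm_apply_apply])
  have hcard := h.card_inf hout
  rw [pow_zero, one_mul] at hcard
  by_cases hz : ∃ z : K, (z : H) ∈ A ∧ IsConj (mk (signCo0 o)) (f z)
  · obtain ⟨z, hzA, hc⟩ := hz
    obtain ⟨g, hg⟩ := isConj_iff.1 hc.symm
    exact no_z h ho (f.trans (MulAut.conj g)) hzA hg hout
  · push Not at hz
    have hcl : ∀ b : K, (b : H) ∈ A → b ≠ 1 → DimGe.{v} (f b) 8 ∧ ∀ g : Co0, mk g = f b → tr8 g = 0 := by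
      intro b hb hb1
      have h1 : b * b = 1 := Subtype.ext (h.el _ hb)
      have h2 := cls.{v} ho (k := f b) (by rw [← map_mul, h1, map_one]) (fun h3 => hb1 (f.injective (h3.trans
        (map_one f).symm)))
      exact ⟨h2.1, h2.2.resolve_left (hz b hb)⟩
    -- the order
    set B : Subgroup Spor.Co1 := (A.subgroupOf K).map f.toMonoidHom with hB
    have hBc : Nat.card B = Nat.card (A.subgroupOf K) := by
      rw [hB, card_map_of_injective f.injective]
    have hdvd : Nat.card B ∣ 576 := by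
      refine card_dvd B ?_
      rintro g ⟨b, hb, hbg⟩ hg1
      refine (hcl b hb (fun h1 => hg1 ?_)).2 g hbg.symm
      rw [← hbg, h1]
      exact map_one f
    -- an element
    have h2 : 2 ≤ Nat.card (A.subgroupOf K) := h.two_le.trans hcard
    have hnt : Nontrivial (A.subgroupOf K) := Finite.one_lt_card_iff_nontrivial.1 (by omega)
    obtain ⟨b, hb⟩ := exists_ne (1 : A.subgroupOf K)
    have h3 := (hcl b b.2 (fun h1 => hb (Subtype.ext h1))).1.map f.symm.toMonoidHom f.symm.injective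
    have h4 : f.symm.toMonoidHom (f b) = (b : K) := f.symm_apply_apply _
    rw [h4] at h3
    have h5 := (h.dim_le h3).trans (h.index_mem b.2)
    have h6 : 2 ^ 8 ≤ Nat.card B := by
      rw [hBc]
      exact h5.trans hcard
    -- `|B|` is a power of 2
    have hp : Fact (Nat.Prime 2) := ⟨Nat.prime_two⟩
    have hB2 : IsPGroup 2 (A.subgroupOf K) := fun b => ⟨1, by
      rw [pow_one, pow_two]
      exact Subtype.ext (Subtype.ext (h.el _ b.2))⟩
    obtain ⟨r, hr⟩ := IsPGroup.iff_card.1 hB2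
    rw [hBc, hr] at hdvd h6
    have h7 := (Nat.pow_le_pow_iff_right (by norm_num : 1 < 2)).1 h6
    have h8 : 2 ^ 7 ∣ 576 := (pow_dvd_pow 2 (by omega)).trans hdvd
    norm_num at h8

end Cfsg.Agent.H831.FF.RowCo1
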